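import Cfsg.Agent.L.Leech.Counts2
/-!
Shape census for norm 48.
-/
set_option autoImplicit false
set_option maxHeartbeats 400000
namespace CfsgL.Leech
open Cfsg CfsgL.Golay CfsgL.Digits Finset

/-- the odd vectors of norm 48 -/
def odd48 : Set (GolayPt → ℤ) := {x | x ∈ leechLattice ∧ sqNorm x = 48 ∧ ¬ (2 : ℤ) ∣ x none}
def even48 : Set (GolayPt → ℤ) := {x | x ∈ leechLattice ∧ sqNorm x = 48 ∧ (2 : ℤ) ∣ x none}
def sml48 : Set (GolayPt → ℤ) := {x | x ∈ leechLattice ∧ sqNorm x = 48 ∧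
  ∀ i, x i ∈ ({1, -3} : Finset ℤ) ∪ ({1, -3} : Finset ℤ).image (fun d => -d)}
def two48 : Set (GolayPt → ℤ) := {x | x ∈ leechLattice ∧ sqNorm x = 4 * (12 : ℕ) ∧
  ∃ y : GolayPt → ℤ, x = (fun i => 2 * y i) ∧ ∀ i, y i ∈ ({0} : Finset ℤ) ∪ {1, -1}}

theorem ncard_sml : sml48.ncard = 8290304 :=
  ncard_odd BB (by decide +kernel) {1, -3} (by decide) (by decide) 3 48 (by norm_num)
    (by norm_num) 8290304 (by decide +kernel)

theorem ncard_two : two48.ncard = 5275648 :=
  ncard_even BB hBB {0} {1, -1} (by decide) (by decide) (by decide) (by decide) 12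
    (BB ^ 205 + BB ^ 203) (BB ^ 4) (by decide +kernel) (by decide +kernel) _ (by decide +kernel)

theorem bound48 {x : GolayPt → ℤ} (hn : sqNorm x = 48) (i : GolayPt) : -6 ≤ x i ∧ x i ≤ 6 := by
  have := sq_le_norm x i
  rw [hn] at this
  constructor <;> nlinarith

theorem ncard_odd48 : odd48.ncard = 8388608 := by
  have h := ncard_odd BB (by decide +kernel) Dodd (by decide) (by decide) 3 48 (by norm_num)
    (by norm_num) 8388608 (by decide +kernel)
  rw [← h]
  congr 1
  ext x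
  unfold odd48
  rw [Set.mem_ofPred_eq, Set.mem_ofPred_eq]
  constructor
  · rintro ⟨h1, h2, h3⟩
    refine ⟨h1, h2, fun i => ?_⟩
    obtain ⟨_, h4, _⟩ := odd_iff.1 ⟨h1, h3⟩
    have h5 : ∀ d : ℤ, -6 ≤ d → d ≤ 6 → d % 2 = 1 → d ∈ Dodd ∪ Dodd.image (fun d => -d) := by
      intro d h1 h2 h3
      interval_cases d <;> first | decide | (exfalso; revert h3; decide)
    exact h5 _ (bound48 h2 i).1 (bound48 h2 i).2 (h4 i)
  · rintro ⟨h1, h2, h3⟩
    refine ⟨h1, h2, ?_⟩
    have h5 : ∀ d ∈ Dodd ∪ Dodd.image (fun d => -d), d % 2 = 1 := by decide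
    have := h5 _ (h3 none)
    omega

theorem ncard_even48 : even48.ncard = 8384512 := by
  have h := ncard_even BB hBB DeF DoF (by decide) (by decide) (by decide) (by decide) 12 aa bb
    haa hbb 8384512 (by decide +kernel)
  rw [← h]
  congr 1
  ext x
  unfold even48
  rw [Set.mem_ofPred_eq, Set.mem_ofPred_eq]
  constructor
  · rintro ⟨h1, h2, h3⟩
    obtain ⟨y, rfl⟩ := even_half h1 h3
    refine ⟨h1, by rw [h2]; norm_num, y, rfl, fun i => ?_⟩
    have := bound48 h2 i
    have h3 : -3 ≤ y i ∧ y i ≤ 3 := by omega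
    have h4 : ∀ d : ℤ, -3 ≤ d → d ≤ 3 → d ∈ DeF ∪ DoF := by
      intro d h1 h2
      interval_cases d <;> decide
    exact h4 _ h3.1 h3.2
  · rintro ⟨h1, h2, y, rfl, _⟩
    exact ⟨h1, by rw [h2]; norm_num, ⟨y none, rfl⟩⟩

theorem fin_of {p : (GolayPt → ℤ) → Prop} {M : ℤ} (h : ∀ x, p x → sqNorm x = M) :
    {x : GolayPt → ℤ | p x}.Finite := by
  apply Set.Finite.subset (Finset.finite_toSet (Fintype.piFinset (fun _ : GolayPt => Finset.Icc (-M) M)))
  intro x hx
  have h2 := h x hx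
  rw [Finset.mem_coe, Fintype.mem_piFinset]
  intro i
  rw [Finset.mem_Icc]
  have := sq_le_norm x i
  rw [h2] at this
  constructor <;> nlinarith

theorem sml_sub : sml48 ⊆ odd48 := by
  rintro x ⟨h1, h2, h3⟩
  refine ⟨h1, h2, ?_⟩
  have h5 : ∀ d ∈ ({1, -3} : Finset ℤ) ∪ ({1, -3} : Finset ℤ).image (fun d => -d), d % 2 = 1 := by
    decide
  have := h5 _ (h3 none)
  omega

theorem two_sub : two48 ⊆ even48 := by
  rintro x ⟨h1, h2, y, rfl, _⟩
  exact ⟨h1, by rw [h2]; norm_num, ⟨y none, rfl⟩⟩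

/-- norm of an odd vector, counted by weights -/
theorem odd48_sum {x : GolayPt → ℤ} (hx : x ∈ odd48) : ∑ i, gO (x i) = 3 := by
  obtain ⟨h1, h2, h3⟩ := hx
  obtain ⟨_, h4, _⟩ := odd_iff.1 ⟨h1, h3⟩
  have := gO_sum h4
  rw [h2] at this
  have h5 : 24 + 8 * ∑ i, gO (x i) = 48 := by exact_mod_cast this
  omega

theorem gO_vals : gO 1 = 0 ∧ gO (-1) = 0 ∧ gO 3 = 1 ∧ gO (-3) = 1 ∧ gO 5 = 3 ∧ gO (-5) = 3 := by
  decide

theorem odd48_vals {x : GolayPt → ℤ} (hx : x ∈ odd48) (i : GolayPt) :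
    x i = 1 ∨ x i = -1 ∨ x i = 3 ∨ x i = -3 ∨ x i = 5 ∨ x i = -5 := by
  obtain ⟨h1, h2, h3⟩ := hx
  obtain ⟨_, h4, _⟩ := odd_iff.1 ⟨h1, h3⟩
  have := bound48 h2 i
  have := h4 i
  omega

theorem five_set : {x : GolayPt → ℤ | x ∈ leechLattice ∧ sqNorm x = 48 ∧ ∃ i, |x i| = 5} =
    odd48 \ sml48 := by
  ext x
  rw [Set.mem_ofPred_eq, Set.mem_sdiff]
  constructor
  · rintro ⟨h1, h2, i, hi⟩
    have hxi : x i = 5 ∨ x i = -5 := by
      rcases abs_eq (by norm_num : (0 : ℤ) ≤ 5) |>.1 hi with h | h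
      · exact Or.inl h
      · exact Or.inr h
    have h3 : x ∈ odd48 := by
      refine ⟨h1, h2, fun h => ?_⟩
      obtain ⟨y, rfl⟩ := even_half h1 h
      simp only at hxi
      omega
    refine ⟨h3, fun h => ?_⟩
    have h4 := h.2.2 i
    have h5 : ∀ d ∈ ({1, -3} : Finset ℤ) ∪ ({1, -3} : Finset ℤ).image (fun d => -d),
      d ≠ 5 ∧ d ≠ -5 := by decide
    rcases hxi with h | h
    · exact (h5 _ h4).1 h
    · exact (h5 _ h4).2 h
  · rintro ⟨h1, h2⟩
    refine ⟨h1.1, h1.2.1, ?_⟩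
    by_contra h
    push Not at h
    apply h2
    refine ⟨h1.1, h1.2.1, fun i => ?_⟩
    have h3 := odd48_vals h1 i
    have h4 := h i
    have h5 : x i ≠ 5 ∧ x i ≠ -5 := by
      constructor
      · intro h'; rw [h'] at h4; exact h4 rfl
      · intro h'; rw [h'] at h4; exact h4 rfl
    have key : ∀ d : ℤ, (d = 1 ∨ d = -1 ∨ d = 3 ∨ d = -3 ∨ d = 5 ∨ d = -5) → (d ≠ 5 ∧ d ≠ -5) →
        d ∈ ({1, -3} : Finset ℤ) ∪ ({1, -3} : Finset ℤ).image (fun d => -d) := by
      rintro d (rfl | rfl | rfl | rfl | rfl | rfl) h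
      · decide
      · decide
      · decide
      · decide
      · exact absurd rfl h.1
      · exact absurd rfl h.2
    exact key _ h3 h5

theorem three_set : {x : GolayPt → ℤ | x ∈ leechLattice ∧ sqNorm x = 48 ∧
    ∃ i j k, i ≠ j ∧ j ≠ k ∧ i ≠ k ∧ |x i| = 3 ∧ |x j| = 3 ∧ |x k| = 3} = sml48 := by
  ext x
  rw [Set.mem_ofPred_eq]
  constructor
  · rintro ⟨h1, h2, i, j, k, hij, hjk, hik, hi, hj, hk⟩
    have ab : ∀ l, |x l| = 3 → x l = 3 ∨ x l = -3 := fun l hl =>
      (abs_eq (by norm_num : (0 : ℤ) ≤ 3)).1 hl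
    have h3 : x ∈ odd48 := by
      refine ⟨h1, h2, fun h => ?_⟩
      obtain ⟨y, rfl⟩ := even_half h1 h
      have := ab i hi
      simp only at this
      omega
    refine ⟨h1, h2, fun l => ?_⟩
    have h4 := odd48_sum h3
    have hg : ∀ l, |x l| = 3 → gO (x l) = 1 := by
      intro l hl
      rcases ab l hl with h | h
      · rw [h]; exact gO_vals.2.2.1
      · rw [h]; exact gO_vals.2.2.2.1
    have h5 : x l ≠ 5 ∧ x l ≠ -5 := by
      by_contra hne
      have hl3 : gO (x l) = 3 := by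
        have : x l = 5 ∨ x l = -5 := by
          rcases not_and_or.1 hne with h | h
          · exact Or.inl (not_not.1 h)
          · exact Or.inr (not_not.1 h)
        rcases this with h | h
        · rw [h]; exact gO_vals.2.2.2.2.1
        · rw [h]; exact gO_vals.2.2.2.2.2
      have hli : l ≠ i := by
        rintro rfl
        have := hg l hi
        omega
      have h6 : ∑ t ∈ ({l, i} : Finset GolayPt), gO (x t) ≤ ∑ t, gO (x t) :=
        Finset.sum_le_sum_of_subset (Finset.subset_univ _)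
      rw [Finset.sum_pair hli, hl3, hg i hi, h4] at h6
      omega
    have h6 := odd48_vals h3 l
    have key : ∀ d : ℤ, (d = 1 ∨ d = -1 ∨ d = 3 ∨ d = -3 ∨ d = 5 ∨ d = -5) → (d ≠ 5 ∧ d ≠ -5) →
        d ∈ ({1, -3} : Finset ℤ) ∪ ({1, -3} : Finset ℤ).image (fun d => -d) := by
      rintro d (rfl | rfl | rfl | rfl | rfl | rfl) h
      · decide
      · decide
      · decide
      · decide
      · exact absurd rfl h.1
      · exact absurd rfl h.2
    exact key _ h6 h5
  · intro hx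
    have h3 := sml_sub hx
    refine ⟨hx.1, hx.2.1, ?_⟩
    have h4 := odd48_sum h3
    have h5 : ∀ l, gO (x l) = if |x l| = 3 then 1 else 0 := by
      intro l
      have h6 := hx.2.2 l
      have h7 : ∀ d ∈ ({1, -3} : Finset ℤ) ∪ ({1, -3} : Finset ℤ).image (fun d => -d),
        gO d = if |d| = 3 then 1 else 0 := by decide
      exact h7 _ h6
    rw [sum_congr rfl (fun i _ => h5 i), Finset.sum_boole] at h4
    have h6 : (univ.filter (fun i => |x i| = 3)).card = 3 := by exact_mod_cast h4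
    obtain ⟨i, j, k, h7, h8, h9, h10⟩ := Finset.card_eq_three.1 h6
    have hm : ∀ l ∈ ({i, j, k} : Finset GolayPt), |x l| = 3 := by
      intro l hl
      rw [← h10] at hl
      exact (mem_filter.1 hl).2
    exact ⟨i, j, k, h7, h9, h8, hm i (by simp), hm j (by simp), hm k (by simp)⟩

theorem two_set : {x : GolayPt → ℤ | x ∈ leechLattice ∧ sqNorm x = 48 ∧
    ∀ i, x i = 0 ∨ x i = 2 ∨ x i = -2} = two48 := by
  ext x
  rw [Set.mem_ofPred_eq]
  constructor
  · rintro ⟨h1, h2, h3⟩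
    have h4 : (2 : ℤ) ∣ x none := by
      rcases h3 none with h | h | h <;> rw [h] <;> norm_num
    obtain ⟨y, rfl⟩ := even_half h1 h4
    refine ⟨h1, by rw [h2]; norm_num, y, rfl, fun i => ?_⟩
    have := h3 i
    simp only at this
    have h5 : y i = 0 ∨ y i = 1 ∨ y i = -1 := by omega
    rcases h5 with h | h | h <;> rw [h] <;> decide
  · rintro ⟨h1, h2, y, rfl, h3⟩
    refine ⟨h1, by rw [h2]; norm_num, fun i => ?_⟩
    have h4 := h3 i
    simp only [mem_union, mem_singleton, mem_insert] at h4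
    simp only
    omega

theorem four_set : {x : GolayPt → ℤ | x ∈ leechLattice ∧ sqNorm x = 48 ∧ ∃ i, |x i| = 4} =
    even48 \ two48 := by
  ext x
  rw [Set.mem_ofPred_eq, Set.mem_sdiff]
  constructor
  · rintro ⟨h1, h2, i, hi⟩
    have hxi : x i = 4 ∨ x i = -4 := (abs_eq (by norm_num : (0 : ℤ) ≤ 4)).1 hi
    have h3 : (2 : ℤ) ∣ x none := by
      by_contra h
      obtain ⟨_, h4, _⟩ := odd_iff.1 ⟨h1, h⟩
      have := h4 i
      omega
    refine ⟨⟨h1, h2, h3⟩, ?_⟩
    rintro ⟨_, _, y, rfl, h5⟩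
    have h6 := h5 i
    simp only [mem_union, mem_singleton, mem_insert] at h6
    simp only at hxi
    omega
  · rintro ⟨⟨h1, h2, h3⟩, h4⟩
    refine ⟨h1, h2, ?_⟩
    by_contra hne
    push Not at hne
    apply h4
    obtain ⟨y, rfl⟩ := even_half h1 h3
    refine ⟨h1, by rw [h2]; norm_num, y, rfl, fun i => ?_⟩
    have h5 := bound48 h2 i
    have h6 := hne i
    simp only at h5 h6
    have h7 : y i ≠ 2 ∧ y i ≠ -2 := by
      constructor
      · intro h'; rw [h'] at h6; exact h6 rfl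
      · intro h'; rw [h'] at h6; exact h6 rfl
    -- exclude ±3 by the norm
    have h8 : y i ≠ 3 ∧ y i ≠ -3 := by
      by_contra h9
      have hy3 : y i = 3 ∨ y i = -3 := by
        rcases not_and_or.1 h9 with h | h
        · exact Or.inl (not_not.1 h)
        · exact Or.inr (not_not.1 h)
      have hy2 : y i ^ 2 = 9 := by
        rcases hy3 with h | h <;> rw [h] <;> norm_num
      obtain ⟨hp, _⟩ := even_iff.1 h1
      have hi : i ∈ patO y := by
        simp only [patO, mem_filter, mem_univ, true_and]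
        omega
      have hc : 8 ≤ (patO y).card := by
        rcases card_of_mem_supports hp with h | h | h | h | h
        · rw [card_eq_zero] at h
          rw [h] at hi; simp at hi
        all_goals omega
      have e1 : ∑ t ∈ patO y, (if t = i then (9 : ℤ) else 1) ≤ ∑ t ∈ patO y, y t ^ 2 := by
        apply sum_le_sum
        intro t ht
        by_cases hti : t = i
        · rw [if_pos hti, hti, hy2]
        · rw [if_neg hti]
          simp only [patO, mem_filter, mem_univ, true_and] at ht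
          have : y t ≠ 0 := by omega
          have : 0 < y t ^ 2 := by positivity
          omega
      have e2 : ∑ t ∈ patO y, y t ^ 2 ≤ ∑ t, y t ^ 2 :=
        sum_le_sum_of_subset_of_nonneg (subset_univ _) (fun t _ _ => sq_nonneg _)
      have e3 : ∑ t ∈ patO y, (if t = i then (9 : ℤ) else 1) = 8 + (patO y).card := by
        have : ∀ t, (if t = i then (9 : ℤ) else 1) = (if t = i then 8 else 0) + 1 := by
          intro t; split <;> norm_num
        rw [sum_congr rfl (fun t _ => this t), sum_add_distrib, sum_ite_eq', if_pos hi, sum_const]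
        simp
      have e4 : 4 * ∑ t, y t ^ 2 = 48 := by
        rw [← h2]
        unfold sqNorm
        rw [mul_sum]
        apply sum_congr rfl
        intro t _; ring
      have hc' : (8 : ℤ) ≤ (patO y).card := by exact_mod_cast hc
      linarith
    have h9 : y i = 0 ∨ y i = 1 ∨ y i = -1 := by omega
    rcases h9 with h | h | h <;> rw [h] <;> decide

theorem census : {x : GolayPt → ℤ | x ∈ leechLattice ∧ sqNorm x = 48 ∧
      ∀ i, x i = 0 ∨ x i = 2 ∨ x i = -2}.ncard = 5275648 ∧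
    {x : GolayPt → ℤ | x ∈ leechLattice ∧ sqNorm x = 48 ∧
      ∃ i j k, i ≠ j ∧ j ≠ k ∧ i ≠ k ∧ |x i| = 3 ∧ |x j| = 3 ∧ |x k| = 3}.ncard = 8290304 ∧
    {x : GolayPt → ℤ | x ∈ leechLattice ∧ sqNorm x = 48 ∧ ∃ i, |x i| = 4}.ncard = 3108864 ∧
    {x : GolayPt → ℤ | x ∈ leechLattice ∧ sqNorm x = 48 ∧ ∃ i, |x i| = 5}.ncard = 98304 := by
  rw [two_set, three_set, four_set, five_set]
  have f1 : odd48.Finite := fin_of (fun x hx => hx.2.1)
  have f2 : even48.Finite := fin_of (fun x hx => hx.2.1)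
  refine ⟨ncard_two, ncard_sml, ?_, ?_⟩
  · rw [Set.ncard_sdiff two_sub (f2.subset two_sub), ncard_even48, ncard_two]
  · rw [Set.ncard_sdiff sml_sub (f1.subset sml_sub), ncard_odd48, ncard_sml]

end CfsgL.Leech
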