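import Cfsg.Agent.L.Leech.Basic
/-!
The index of the Leech lattice in `ℤ^24`.
-/
set_option autoImplicit false
namespace CfsgL.Leech
open Cfsg CfsgL.Golay
open scoped Pointwise

abbrev V := GolayPt → ℤ

/-- index computation by a homomorphism from a subgroup -/
theorem relIndex_of_hom {A : Type*} [AddCommGroup A] {B : Type*} [AddCommGroup B] (H K : AddSubgroup A)
    (f : K →+ B) (hs : Function.Surjective f) (hk : ∀ x : K, f x = 0 ↔ (x : A) ∈ H) :
    H.relIndex K = Nat.card B := by
  have h1 : H.addSubgroupOf K = f.ker := by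
    ext x
    rw [AddSubgroup.mem_addSubgroupOf, AddMonoidHom.mem_ker, hk]
  change (H.addSubgroupOf K).index = _
  rw [h1, AddSubgroup.index_ker, AddMonoidHom.range_eq_top.2 hs]
  exact Nat.card_congr (AddSubgroup.topEquiv.toEquiv)

/-- even vectors -/
def A1 : AddSubgroup V where
  carrier := {x | ∀ i, (2 : ℤ) ∣ x i}
  zero_mem' := fun _ => dvd_zero _
  add_mem' := fun hx hy i => dvd_add (hx i) (hy i)
  neg_mem' := fun hx i => (dvd_neg).2 (hx i)

/-- even vectors whose half is a codeword mod 2 -/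
def A2 : AddSubgroup V where
  carrier := {x | (∀ i, (2 : ℤ) ∣ x i) ∧ (fun i => ((x i / 2 : ℤ) : ZMod 2)) ∈ golayCode}
  zero_mem' := ⟨fun _ => dvd_zero _, by
    have : (fun i : GolayPt => (((0 : V) i / 2 : ℤ) : ZMod 2)) = 0 := by funext i; simp
    rw [this]; exact golayCode.zero_mem⟩
  add_mem' := by
    rintro x y ⟨hx, hx'⟩ ⟨hy, hy'⟩
    refine ⟨fun i => dvd_add (hx i) (hy i), ?_⟩
    have : (fun i : GolayPt => (((x + y) i / 2 : ℤ) : ZMod 2)) =
        (fun i => ((x i / 2 : ℤ) : ZMod 2)) + (fun i => ((y i / 2 : ℤ) : ZMod 2)) := by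
      funext i
      rw [Pi.add_apply, Pi.add_apply, Int.add_ediv_of_dvd_left (hx i)]
      push_cast; rfl
    rw [this]; exact golayCode.add_mem hx' hy'
  neg_mem' := by
    rintro x ⟨hx, hx'⟩
    refine ⟨fun i => (dvd_neg).2 (hx i), ?_⟩
    have : (fun i : GolayPt => (((-x) i / 2 : ℤ) : ZMod 2)) =
        - (fun i => ((x i / 2 : ℤ) : ZMod 2)) := by
      funext i
      rw [Pi.neg_apply, Pi.neg_apply, Int.neg_ediv_of_dvd (hx i)]
      push_cast; rfl
    rw [this]; exact golayCode.neg_mem hx'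

/-- even lattice vectors -/
def A3 : AddSubgroup V where
  carrier := {x | x ∈ A2 ∧ (8 : ℤ) ∣ ∑ i, x i}
  zero_mem' := ⟨A2.zero_mem, by simp⟩
  add_mem' := by
    rintro x y ⟨hx, hx'⟩ ⟨hy, hy'⟩
    refine ⟨A2.add_mem hx hy, ?_⟩
    have : ∑ i, (x + y) i = ∑ i, x i + ∑ i, y i := by
      rw [← Finset.sum_add_distrib]; rfl
    rw [this]; exact dvd_add hx' hy'
  neg_mem' := by
    rintro x ⟨hx, hx'⟩
    refine ⟨A2.neg_mem hx, ?_⟩
    have : ∑ i, (-x) i = - ∑ i, x i := by
      rw [← Finset.sum_neg_distrib]; rfl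
    rw [this]; exact (dvd_neg).2 hx'

theorem index_A1 : A1.index = 2 ^ 24 := by
  let f : V →+ (GolayPt → ZMod 2) :=
    { toFun := fun x i => (x i : ZMod 2)
      map_zero' := by funext i; simp
      map_add' := by intro x y; funext i; simp }
  have hs : Function.Surjective f := by
    intro v
    refine ⟨fun i => ((v i).val : ℤ), ?_⟩
    funext i
    change (((v i).val : ℤ) : ZMod 2) = v i
    rw [Int.cast_natCast, ZMod.natCast_zmod_val]
  have hk : A1 = f.ker := by
    ext x
    rw [AddMonoidHom.mem_ker]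
    constructor
    · intro h; funext i
      exact (ZMod.intCast_zmod_eq_zero_iff_dvd (x i) 2).2 (h i)
    · intro h i
      exact (ZMod.intCast_zmod_eq_zero_iff_dvd (x i) 2).1 (congrFun h i)
  rw [hk, AddSubgroup.index_ker, AddMonoidHom.range_eq_top.2 hs]
  rw [Nat.card_congr (AddSubgroup.topEquiv.toEquiv)]
  rw [Nat.card_eq_fintype_card, Fintype.card_fun, ZMod.card]
  have : Fintype.card GolayPt = 24 := by decide
  rw [this]

theorem mem_A2_of {w : GolayPt → ZMod 2} {x : V} (hx : ∀ i, (2 : ℤ) ∣ x i)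
    (h : (fun i => ((x i / 2 : ℤ) : ZMod 2)) = w) : x ∈ A2 ↔ w ∈ golayCode := by
  constructor
  · rintro ⟨_, h2⟩; rwa [h] at h2
  · intro h2; exact ⟨hx, by rw [h]; exact h2⟩

theorem relIndex_A2 : A2.relIndex A1 = 2 ^ 12 := by
  let g : A1 →+ (GolayPt → ZMod 2) :=
    { toFun := fun x i => ((x.1 i / 2 : ℤ) : ZMod 2)
      map_zero' := by funext i; simp
      map_add' := by
        intro x y
        funext i
        change (((x.1 i + y.1 i) / 2 : ℤ) : ZMod 2) = _
        rw [Int.add_ediv_of_dvd_left (x.2 i)]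
        push_cast; rfl }
  let f : A1 →+ (GolayPt → ZMod 2) ⧸ golayCode.toAddSubgroup :=
    (QuotientAddGroup.mk' golayCode.toAddSubgroup).comp g
  have hs : Function.Surjective f := by
    intro q
    obtain ⟨v, rfl⟩ := QuotientAddGroup.mk_surjective q
    refine ⟨⟨fun i => 2 * ((v i).val : ℤ), fun i => dvd_mul_right _ _⟩, ?_⟩
    change QuotientAddGroup.mk _ = QuotientAddGroup.mk v
    congr 1
    funext i
    change ((2 * ((v i).val : ℤ) / 2 : ℤ) : ZMod 2) = v i
    rw [Int.mul_ediv_cancel_left _ (by norm_num), Int.cast_natCast, ZMod.natCast_zmod_val]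
  rw [relIndex_of_hom A2 A1 f hs]
  · have h1 := AddSubgroup.card_eq_card_quotient_mul_card_addSubgroup golayCode.toAddSubgroup
    have h2 : Nat.card golayCode.toAddSubgroup = 4096 := card_golayCode
    rw [h2, Nat.card_eq_fintype_card (α := GolayPt → ZMod 2), Fintype.card_fun, ZMod.card] at h1
    have : Fintype.card GolayPt = 24 := by decide
    rw [this] at h1
    omega
  · intro x
    change (QuotientAddGroup.mk (g x) : (GolayPt → ZMod 2) ⧸ golayCode.toAddSubgroup) = 0 ↔ _
    rw [QuotientAddGroup.eq_zero_iff]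
    exact ⟨fun h => ⟨x.2, h⟩, fun h => h.2⟩

theorem sum_A2 {x : V} (hx : x ∈ A2) : (4 : ℤ) ∣ ∑ i, x i := by
  obtain ⟨h1, h2⟩ := hx
  choose y hy using h1
  set w : GolayPt → ZMod 2 := fun i => ((x i / 2 : ℤ) : ZMod 2) with hw
  have hc : support₂ w ∈ Sup := ⟨w, h2, rfl⟩
  have h3 : ∀ i, (2 : ℤ) ∣ y i - ind (support₂ w) i := by
    intro i
    have e : w i = (y i : ZMod 2) := by
      rw [hw]; simp only; rw [hy i, Int.mul_ediv_cancel_left _ (by norm_num)]
    apply (ZMod.intCast_zmod_eq_zero_iff_dvd _ 2).1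
    push_cast
    rw [← e]
    unfold ind support₂
    by_cases h : w i = 0
    · simp [h]
    · have h1 : w i = 1 := by
        have : ∀ a : ZMod 2, a ≠ 0 → a = 1 := by decide
        exact this _ h
      simp [h1]
  choose z hz using h3
  have h4 : ∑ i, x i = 2 * (support₂ w).card + 4 * ∑ i, z i := by
    have : ∀ i, x i = 2 * ind (support₂ w) i + 4 * z i := by
      intro i
      have := hz i
      rw [hy i]; linarith
    rw [Finset.sum_congr rfl (fun i _ => this i), Finset.sum_add_distrib, ← Finset.mul_sum,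
      ← Finset.mul_sum, ind_sum]
  obtain ⟨c, hc'⟩ := card_sup hc
  rw [h4, hc']
  exact ⟨2 * c + ∑ i, z i, by ring⟩

theorem relIndex_A3 : A3.relIndex A2 = 2 := by
  let f : A2 →+ ZMod 2 :=
    { toFun := fun x => (((∑ i, x.1 i) / 4 : ℤ) : ZMod 2)
      map_zero' := by simp
      map_add' := by
        intro x y
        have : ∑ i, (x.1 + y.1) i = ∑ i, x.1 i + ∑ i, y.1 i := by
          rw [← Finset.sum_add_distrib]; rfl
        change (((∑ i, (x.1 + y.1) i) / 4 : ℤ) : ZMod 2) = _
        rw [this, Int.add_ediv_of_dvd_left (sum_A2 x.2)]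
        push_cast; rfl }
  rw [relIndex_of_hom A3 A2 f]
  · rw [Nat.card_eq_fintype_card, ZMod.card]
  · intro b
    refine ⟨⟨Pi.single none (4 * (b.val : ℤ)), ?_⟩, ?_⟩
    · refine ⟨?_, ?_⟩
      · intro i
        by_cases h : i = none
        · subst h; rw [Pi.single_eq_same]; exact ⟨2 * b.val, by ring⟩
        · rw [Pi.single_eq_of_ne h]; exact dvd_zero _
      · have : (fun i : GolayPt => (((Pi.single none (4 * (b.val : ℤ)) : V) i / 2 : ℤ) : ZMod 2)) = 0 := by
          funext i
          by_cases h : i = none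
          · subst h; rw [Pi.single_eq_same]
            have : (4 * (b.val : ℤ)) / 2 = 2 * b.val := by omega
            rw [this]; push_cast
            have : (2 : ZMod 2) = 0 := by decide
            rw [this]; simp
          · rw [Pi.single_eq_of_ne h]; simp
        rw [this]; exact golayCode.zero_mem
    · change (((∑ i, (Pi.single none (4 * (b.val : ℤ)) : V) i) / 4 : ℤ) : ZMod 2) = b
      rw [Finset.sum_pi_single']
      simp only [Finset.mem_univ, if_true]
      rw [Int.mul_ediv_cancel_left _ (by norm_num), Int.cast_natCast, ZMod.natCast_zmod_val]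
  · intro x
    change (((∑ i, x.1 i) / 4 : ℤ) : ZMod 2) = 0 ↔ _
    rw [ZMod.intCast_zmod_eq_zero_iff_dvd]
    constructor
    · intro h
      refine ⟨x.2, ?_⟩
      obtain ⟨k, hk⟩ := sum_A2 x.2
      rw [hk] at h ⊢
      rw [Int.mul_ediv_cancel_left _ (by norm_num)] at h
      obtain ⟨l, hl⟩ := h
      exact ⟨l, by push_cast at hl; rw [hl]; ring⟩
    · intro h
      obtain ⟨k, hk⟩ := h.2
      rw [hk]
      exact ⟨k, by push_cast; omega⟩

theorem A3_le : A3 ≤ leechLattice := by
  rintro x ⟨⟨h1, h2⟩, h3⟩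
  choose y hy using h1
  set w : GolayPt → ZMod 2 := fun i => ((x i / 2 : ℤ) : ZMod 2) with hw
  have hc : support₂ w ∈ Sup := ⟨w, h2, rfl⟩
  have h3' : ∀ i, (2 : ℤ) ∣ y i - ind (support₂ w) i := by
    intro i
    have e : w i = (y i : ZMod 2) := by
      rw [hw]; simp only; rw [hy i, Int.mul_ediv_cancel_left _ (by norm_num)]
    apply (ZMod.intCast_zmod_eq_zero_iff_dvd _ 2).1
    push_cast
    rw [← e]
    unfold ind support₂
    by_cases h : w i = 0
    · simp [h]
    · have h1 : w i = 1 := by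
        have : ∀ a : ZMod 2, a ≠ 0 → a = 1 := by decide
        exact this _ h
      simp [h1]
  choose z hz using h3'
  have hx : x = vec 0 (support₂ w) z := by
    funext i
    unfold vec
    have := hz i
    rw [hy i]; linarith
  refine mem_leech.2 ⟨0, support₂ w, z, hc, ?_, hx⟩
  rw [hx, sum_vec] at h3
  obtain ⟨c, hc'⟩ := card_sup hc
  rw [hc'] at h3
  obtain ⟨k, hk⟩ := h3
  unfold Int.ModEq
  omega

theorem mem_A3_iff {x : V} (hx : x ∈ leechLattice) : x ∈ A3 ↔ (2 : ℤ) ∣ x none := by
  constructor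
  · intro h; exact h.1.1 none
  · intro h
    obtain ⟨m, C, z, hm, hC, hz, rfl⟩ := mem_leech'.1 hx
    have hm0 : m = 0 := by
      rcases hm with rfl | rfl
      · rfl
      · exfalso
        unfold vec at h
        omega
    subst hm0
    refine ⟨⟨fun i => ?_, ?_⟩, ?_⟩
    · unfold vec; exact ⟨ind C i + 2 * z i, by ring⟩
    · obtain ⟨w, hw, rfl⟩ := hC
      have : (fun i => ((vec 0 (support₂ w) z i / 2 : ℤ) : ZMod 2)) = w := by
        funext i
        have e : vec 0 (support₂ w) z i = 2 * (ind (support₂ w) i + 2 * z i) := by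
          unfold vec; ring
        rw [e, Int.mul_ediv_cancel_left _ (by norm_num)]
        push_cast
        have h2 : (2 : ZMod 2) = 0 := by decide
        rw [h2]
        unfold ind support₂
        by_cases h : w i = 0
        · simp [h]
        · have h1 : w i = 1 := by
            have : ∀ a : ZMod 2, a ≠ 0 → a = 1 := by decide
            exact this _ h
          simp [h1]
      rw [this]; exact hw
    · rw [sum_vec]
      obtain ⟨c, hc'⟩ := card_sup hC
      rw [hc']
      obtain ⟨k, hk⟩ := hz.dvd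
      exact ⟨c - k, by linarith⟩

theorem relIndex_leech : A3.relIndex leechLattice = 2 := by
  let f : leechLattice →+ ZMod 2 :=
    { toFun := fun x => ((x.1 none : ℤ) : ZMod 2)
      map_zero' := by simp
      map_add' := by intro x y; simp }
  rw [relIndex_of_hom A3 leechLattice f]
  · rw [Nat.card_eq_fintype_card, ZMod.card]
  · intro b
    have hv : vec 1 ∅ (Pi.single none 1) ∈ leechLattice := by
      refine mem_leech.2 ⟨1, ∅, _, empty_mem, ?_, rfl⟩
      rw [Finset.sum_pi_single']; simp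
    by_cases hb : b = 0
    · exact ⟨0, by rw [hb]; simp⟩
    · have hb1 : b = 1 := by
        have : ∀ a : ZMod 2, a ≠ 0 → a = 1 := by decide
        exact this _ hb
      refine ⟨⟨_, hv⟩, ?_⟩
      rw [hb1]
      change ((vec 1 ∅ (Pi.single none 1) none : ℤ) : ZMod 2) = 1
      have : vec 1 ∅ (Pi.single none 1) none = 5 := by
        unfold vec ind; simp
      rw [this]; decide
  · intro x
    change ((x.1 none : ℤ) : ZMod 2) = 0 ↔ _
    rw [ZMod.intCast_zmod_eq_zero_iff_dvd, mem_A3_iff x.2]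
    rfl

theorem index_leech : leechLattice.index = 2 ^ 36 := by
  have h1 : A2 ≤ A1 := fun x hx => hx.1
  have h2 : A3 ≤ A2 := fun x hx => hx.1
  have e1 := AddSubgroup.relIndex_mul_index h1
  have e2 := AddSubgroup.relIndex_mul_index h2
  have e3 := AddSubgroup.relIndex_mul_index A3_le
  rw [relIndex_A2, index_A1] at e1
  rw [relIndex_A3, ← e1] at e2
  rw [relIndex_leech, ← e2] at e3
  have : (2 : ℕ) ^ 36 = 2 ^ 12 * 2 ^ 24 := by norm_num
  omega

end CfsgL.Leech
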