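import Cfsg.Agent.L.Golay.Weights
import Cfsg.Agent.L.Golay.Perm
import Cfsg.Prelude.Def_SporadicCombinatorics
/-!
The Leech lattice: parametrisation, additive closure, evenness, minimum, index.
-/
set_option autoImplicit false
namespace CfsgL.Leech
open Cfsg CfsgL.Golay
open scoped Pointwise

/-- the supports of codewords -/
abbrev Sup : Set (Finset GolayPt) := supports (golayCode : Set (GolayPt → ZMod 2))

/-- indicator -/
def ind (C : Finset GolayPt) (i : GolayPt) : ℤ := if i ∈ C then 1 else 0

theorem ind_sum (C : Finset GolayPt) : ∑ i, ind C i = C.card := by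
  unfold ind; rw [Finset.sum_boole]; simp

theorem ind_sq (C : Finset GolayPt) (i : GolayPt) : ind C i * ind C i = ind C i := by
  unfold ind; split <;> simp

theorem ind_symmDiff (C D : Finset GolayPt) (i : GolayPt) :
    ind (symmDiff C D) i = ind C i + ind D i - 2 * (ind C i * ind D i) := by
  unfold ind
  by_cases h1 : i ∈ C <;> by_cases h2 : i ∈ D <;> simp [Finset.mem_symmDiff, h1, h2]

/-- the vector with parameters `m`, `C`, `z` -/
def vec (m : ℤ) (C : Finset GolayPt) (z : GolayPt → ℤ) : GolayPt → ℤ :=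
  fun i => m + 2 * ind C i + 4 * z i

theorem card_sup {C : Finset GolayPt} (hC : C ∈ Sup) : (4 : ℤ) ∣ C.card := by
  rcases card_of_mem_supports hC with h | h | h | h | h <;> rw [h] <;> norm_num

theorem sum_vec (m : ℤ) (C : Finset GolayPt) (z : GolayPt → ℤ) :
    ∑ i, vec m C z i = 24 * m + 2 * C.card + 4 * ∑ i, z i := by
  unfold vec
  rw [Finset.sum_add_distrib, Finset.sum_add_distrib, ← Finset.mul_sum, ← Finset.mul_sum, ind_sum]
  simp only [Finset.sum_const, Finset.card_univ, nsmul_eq_mul]
  have : Fintype.card GolayPt = 24 := by decide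
  rw [this]; norm_num

theorem mem_leechSet {x : GolayPt → ℤ} : x ∈ leechSet ↔
    ∃ (m : ℤ) (C : Finset GolayPt) (z : GolayPt → ℤ), C ∈ Sup ∧ (∑ i, z i ≡ m [ZMOD 2]) ∧
      x = vec m C z := by
  constructor
  · rintro ⟨m, h1, h2, h3⟩
    have hC := h3 (m + 2)
    set C := Finset.univ.filter (fun i => x i ≡ m + 2 [ZMOD 4]) with hCdef
    have hz : ∀ i, ∃ z : ℤ, x i = m + 2 * ind C i + 4 * z := by
      intro i
      unfold ind
      by_cases hi : i ∈ C
      · rw [if_pos hi]
        rw [hCdef, Finset.mem_filter] at hi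
        obtain ⟨k, hk⟩ := hi.2.dvd
        exact ⟨-k, by linarith⟩
      · rw [if_neg hi]
        have hi' : ¬ (x i ≡ m + 2 [ZMOD 4]) := fun h => hi (by
          rw [hCdef, Finset.mem_filter]; exact ⟨Finset.mem_univ _, h⟩)
        have h4 := h1 i
        have h5 : x i ≡ m [ZMOD 4] := by
          unfold Int.ModEq at *
          omega
        obtain ⟨k, hk⟩ := h5.dvd
        exact ⟨-k, by linarith⟩
    choose z hz using hz
    refine ⟨m, C, z, hC, ?_, funext hz⟩
    have hx : x = vec m C z := funext hz
    rw [hx, sum_vec] at h2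
    obtain ⟨c, hc⟩ := card_sup hC
    rw [hc] at h2
    unfold Int.ModEq at *
    omega
  · rintro ⟨m, C, z, hC, hz, rfl⟩
    refine ⟨m, ?_, ?_, ?_⟩
    · intro i
      unfold vec Int.ModEq
      omega
    · rw [sum_vec]
      obtain ⟨c, hc⟩ := card_sup hC
      rw [hc]
      unfold Int.ModEq at *
      omega
    · intro k
      have hcase : (k ≡ m [ZMOD 4]) ∨ (k ≡ m + 2 [ZMOD 4]) ∨ ¬ (k ≡ m [ZMOD 2]) := by
        unfold Int.ModEq; omega
      rcases hcase with h | h | h
      · have : Finset.univ.filter (fun i => vec m C z i ≡ k [ZMOD 4]) = Cᶜ := by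
          ext i
          rw [Finset.mem_filter, Finset.mem_compl]
          unfold vec ind
          by_cases hi : i ∈ C
          · simp only [hi, if_true, not_true_eq_false, iff_false, Finset.mem_univ, true_and]
            unfold Int.ModEq at *; omega
          · simp only [hi, if_false, not_false_eq_true, iff_true, Finset.mem_univ, true_and]
            unfold Int.ModEq at *; omega
        rw [this]; exact compl_mem_supports hC
      · have : Finset.univ.filter (fun i => vec m C z i ≡ k [ZMOD 4]) = C := by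
          ext i
          rw [Finset.mem_filter]
          unfold vec ind
          by_cases hi : i ∈ C
          · simp only [hi, if_true, iff_true, Finset.mem_univ, true_and]
            unfold Int.ModEq at *; omega
          · simp only [hi, if_false, iff_false, Finset.mem_univ, true_and]
            unfold Int.ModEq at *; omega
        rw [this]; exact hC
      · have : Finset.univ.filter (fun i => vec m C z i ≡ k [ZMOD 4]) = ∅ := by
          ext i
          rw [Finset.mem_filter]
          simp only [Finset.mem_univ, true_and, Finset.notMem_empty, iff_false]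
          unfold vec
          unfold Int.ModEq at *
          omega
        rw [this]
        have h0 : (∅ : Finset GolayPt) = Finset.univᶜ := by simp
        rw [h0]; exact compl_mem_supports univ_mem_supports

theorem empty_mem : (∅ : Finset GolayPt) ∈ Sup := by
  have h0 : (∅ : Finset GolayPt) = Finset.univᶜ := by simp
  rw [h0]; exact compl_mem_supports univ_mem_supports

theorem zero_mem_leechSet : (0 : GolayPt → ℤ) ∈ leechSet := by
  rw [mem_leechSet]
  refine ⟨0, ∅, 0, empty_mem, ?_, ?_⟩
  · simp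
  · funext i; simp [vec, ind]

theorem neg_mem_leechSet {x : GolayPt → ℤ} (hx : x ∈ leechSet) : -x ∈ leechSet := by
  rw [mem_leechSet] at *
  obtain ⟨m, C, z, hC, hz, rfl⟩ := hx
  refine ⟨-m, C, fun i => - z i - ind C i, hC, ?_, ?_⟩
  · rw [Finset.sum_sub_distrib, Finset.sum_neg_distrib, ind_sum]
    obtain ⟨c, hc⟩ := card_sup hC
    rw [hc]
    unfold Int.ModEq at *
    omega
  · funext i
    simp only [Pi.neg_apply, vec]; ring

theorem add_mem_leechSet {x y : GolayPt → ℤ} (hx : x ∈ leechSet) (hy : y ∈ leechSet) :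
    x + y ∈ leechSet := by
  rw [mem_leechSet] at *
  obtain ⟨m, C, z, hC, hz, rfl⟩ := hx
  obtain ⟨n, D, w, hD, hw, rfl⟩ := hy
  refine ⟨m + n, symmDiff C D, fun i => z i + w i + ind C i * ind D i,
    symmDiff_mem_supports hC hD, ?_, ?_⟩
  · rw [Finset.sum_add_distrib, Finset.sum_add_distrib]
    have h1 : ∑ i, ind C i * ind D i = ((C ∩ D).card : ℤ) := by
      rw [← ind_sum]
      apply Finset.sum_congr rfl
      intro i _
      unfold ind
      by_cases h1 : i ∈ C <;> by_cases h2 : i ∈ D <;> simp [h1, h2]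
    rw [h1]
    obtain ⟨c, hc⟩ := even_inter_card hC hD
    rw [hc]; push_cast
    unfold Int.ModEq at *
    omega
  · funext i
    simp only [Pi.add_apply, vec, ind_symmDiff]; ring

/-- the lattice as a subgroup -/
def LL : AddSubgroup (GolayPt → ℤ) where
  carrier := leechSet
  zero_mem' := zero_mem_leechSet
  add_mem' := add_mem_leechSet
  neg_mem' := neg_mem_leechSet

theorem leechLattice_eq : leechLattice = LL := by
  unfold leechLattice
  exact AddSubgroup.closure_eq LL

theorem mem_leech {x : GolayPt → ℤ} : x ∈ leechLattice ↔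
    ∃ (m : ℤ) (C : Finset GolayPt) (z : GolayPt → ℤ), C ∈ Sup ∧ (∑ i, z i ≡ m [ZMOD 2]) ∧
      x = vec m C z := by
  rw [leechLattice_eq]; exact mem_leechSet

theorem vec_shift (m : ℤ) (C : Finset GolayPt) (z : GolayPt → ℤ) :
    vec (m + 2) C z = vec m Cᶜ (fun i => z i + ind C i) := by
  funext i
  unfold vec ind
  by_cases h : i ∈ C <;> simp [h] <;> ring

/-- normalised parametrisation with `m ∈ {0, 1}` -/
theorem mem_leech' {x : GolayPt → ℤ} : x ∈ leechLattice ↔
    ∃ (m : ℤ) (C : Finset GolayPt) (z : GolayPt → ℤ), (m = 0 ∨ m = 1) ∧ C ∈ Sup ∧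
      (∑ i, z i ≡ m [ZMOD 2]) ∧ x = vec m C z := by
  rw [mem_leech]
  constructor
  · rintro ⟨m, C, z, hC, hz, rfl⟩
    -- m = 4 q + r
    have h4 : vec m C z = vec (m % 4) C (fun i => z i + m / 4) := by
      funext i
      unfold vec
      have := Int.emod_add_mul_ediv m 4
      linarith
    have hs : ∑ i, (z i + m / 4) ≡ m % 4 [ZMOD 2] := by
      rw [Finset.sum_add_distrib]
      simp only [Finset.sum_const, Finset.card_univ, nsmul_eq_mul]
      have : Fintype.card GolayPt = 24 := by decide
      rw [this]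
      unfold Int.ModEq at *
      omega
    rw [h4]
    have hr : m % 4 = 0 ∨ m % 4 = 1 ∨ m % 4 = 0 + 2 ∨ m % 4 = 1 + 2 := by omega
    rcases hr with h | h | h | h
    · exact ⟨0, C, _, Or.inl rfl, hC, by rw [← h]; exact hs, by rw [h]⟩
    · exact ⟨1, C, _, Or.inr rfl, hC, by rw [← h]; exact hs, by rw [h]⟩
    · rw [h, vec_shift]
      refine ⟨0, Cᶜ, _, Or.inl rfl, compl_mem_supports hC, ?_, rfl⟩
      rw [Finset.sum_add_distrib, ind_sum]
      obtain ⟨c, hc⟩ := card_sup hC
      rw [hc]
      unfold Int.ModEq at *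
      omega
    · rw [h, vec_shift]
      refine ⟨1, Cᶜ, _, Or.inr rfl, compl_mem_supports hC, ?_, rfl⟩
      rw [Finset.sum_add_distrib, ind_sum]
      obtain ⟨c, hc⟩ := card_sup hC
      rw [hc]
      unfold Int.ModEq at *
      omega
  · rintro ⟨m, C, z, _, h⟩
    exact ⟨m, C, z, h⟩

theorem sqNorm_vec (m : ℤ) (C : Finset GolayPt) (z : GolayPt → ℤ) :
    sqNorm (vec m C z) = 24 * m ^ 2 + 4 * (1 + m) * C.card + 8 * m * ∑ i, z i +
      16 * ∑ i, (z i ^ 2 + ind C i * z i) := by
  unfold sqNorm vec
  have h : ∀ i, (m + 2 * ind C i + 4 * z i) ^ 2 =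
      m ^ 2 + 4 * (1 + m) * ind C i + 8 * m * z i + 16 * (z i ^ 2 + ind C i * z i) := by
    intro i
    have := ind_sq C i
    ring_nf
    have h2 : ind C i ^ 2 = ind C i := by rw [pow_two]; exact this
    rw [h2]; ring
  rw [Finset.sum_congr rfl (fun i _ => h i)]
  simp only [Finset.sum_add_distrib, ← Finset.mul_sum, ind_sum, Finset.sum_const,
    Finset.card_univ, nsmul_eq_mul]
  have : Fintype.card GolayPt = 24 := by decide
  rw [this]; push_cast; ring

theorem norm_dvd {x : GolayPt → ℤ} (hx : x ∈ leechLattice) : (16 : ℤ) ∣ sqNorm x := by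
  obtain ⟨m, C, z, hm, hC, hz, rfl⟩ := mem_leech'.1 hx
  rw [sqNorm_vec]
  obtain ⟨c, hc⟩ := card_sup hC
  rw [hc]
  obtain ⟨k, hk⟩ := hz.dvd
  have hs : ∑ i, z i = m - 2 * k := by linarith
  rw [hs]
  rcases hm with rfl | rfl
  · exact ⟨c + ∑ i, (z i ^ 2 + ind C i * z i), by ring⟩
  · exact ⟨2 - k + 2 * c + ∑ i, (z i ^ 2 + ind C i * z i), by ring⟩

theorem sq_parity (z : GolayPt → ℤ) : ∑ i, z i ^ 2 ≡ ∑ i, z i [ZMOD 2] := by
  have h : ∀ n : ℤ, n ^ 2 ≡ n [ZMOD 2] := by
    intro n
    rcases Int.even_or_odd' n with ⟨k, rfl | rfl⟩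
    · exact Int.modEq_iff_dvd.2 ⟨k - 2 * k ^ 2, by ring⟩
    · exact Int.modEq_iff_dvd.2 ⟨-(k + 2 * k ^ 2), by ring⟩
  have : (2 : ℤ) ∣ ∑ i, (z i - z i ^ 2) := Finset.dvd_sum (fun i _ => (h (z i)).dvd)
  rw [Finset.sum_sub_distrib] at this
  exact Int.modEq_iff_dvd.2 this

theorem norm_min {x : GolayPt → ℤ} (hx : x ∈ leechLattice) (h0 : x ≠ 0) : 32 ≤ sqNorm x := by
  have hd := norm_dvd hx
  have key : 16 < sqNorm x := by
    obtain ⟨m, C, z, hm, hC, hz, rfl⟩ := mem_leech'.1 hx
    rcases hm with rfl | rfl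
    · by_cases hC0 : C = ∅
      · subst hC0
        have e : ∀ i, vec 0 ∅ z i = 4 * z i := by intro i; simp [vec, ind]
        have h1 : sqNorm (vec 0 ∅ z) = 16 * ∑ i, z i ^ 2 := by
          unfold sqNorm
          rw [Finset.mul_sum]
          apply Finset.sum_congr rfl
          intro i _; rw [e]; ring
        have h2 := sq_parity z
        have h3 : 0 < ∑ i, z i ^ 2 := by
          obtain ⟨i, hi⟩ : ∃ i, z i ≠ 0 := by
            by_contra h
            push Not at h
            apply h0
            funext i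
            rw [e, h i]; rfl
          exact Finset.sum_pos' (fun i _ => sq_nonneg _) ⟨i, Finset.mem_univ _, by positivity⟩
        rw [h1]
        unfold Int.ModEq at *
        omega
      · have h8 : 8 ≤ C.card := by
          rcases card_of_mem_supports hC with h | h | h | h | h
          · exact absurd (Finset.card_eq_zero.1 h) hC0
          all_goals omega
        have h1 : ∑ i ∈ C, (4 : ℤ) ≤ ∑ i ∈ C, (vec 0 C z i) ^ 2 := by
          apply Finset.sum_le_sum
          intro i hi
          have e : vec 0 C z i = 2 * (1 + 2 * z i) := by simp [vec, ind, hi]; ring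
          rw [e]
          have : (1 + 2 * z i) ^ 2 ≥ 1 := by
            have h : (1 + 2 * z i) ≠ 0 := by omega
            have : 0 < (1 + 2 * z i) ^ 2 := by positivity
            omega
          nlinarith
        have h2 : ∑ i ∈ C, (vec 0 C z i) ^ 2 ≤ sqNorm (vec 0 C z) :=
          Finset.sum_le_sum_of_subset_of_nonneg (Finset.subset_univ C) (fun i _ _ => sq_nonneg _)
        rw [Finset.sum_const, nsmul_eq_mul] at h1
        have : (8 : ℤ) ≤ C.card := by exact_mod_cast h8
        linarith
    · have h1 : ∑ i : GolayPt, (1 : ℤ) ≤ sqNorm (vec 1 C z) := by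
        apply Finset.sum_le_sum
        intro i _
        have h : vec 1 C z i ≠ 0 := by unfold vec; omega
        have : 0 < (vec 1 C z i) ^ 2 := by positivity
        omega
      rw [Finset.sum_const, Finset.card_univ] at h1
      have : Fintype.card GolayPt = 24 := by decide
      rw [this] at h1
      simp at h1
      linarith
  obtain ⟨k, hk⟩ := hd
  omega

/-- coordinate permutations from `M24` preserve the lattice -/
theorem perm_mem {σ : Equiv.Perm GolayPt} (hσ : σ ∈ M24) {x : GolayPt → ℤ}
    (hx : x ∈ leechLattice) : (fun i => x (σ i)) ∈ leechLattice := by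
  obtain ⟨m, C, z, hC, hz, rfl⟩ := mem_leech.1 hx
  refine mem_leech.2 ⟨m, σ⁻¹ • C, fun i => z (σ i), ?_, ?_, ?_⟩
  · exact (smul_mem_supports (M24.inv_mem hσ)).2 hC
  · have : ∑ i, z (σ i) = ∑ i, z i := Equiv.sum_comp σ z
    rw [this]; exact hz
  · funext i
    have h : i ∈ σ⁻¹ • C ↔ σ i ∈ C := by
      rw [← Finset.inv_smul_mem_iff, inv_inv]; rfl
    unfold vec ind
    by_cases hi : σ i ∈ C
    · rw [if_pos hi, if_pos (h.2 hi)]
    · rw [if_neg hi, if_neg (fun h' => hi (h.1 h'))]

/-- sign changes on a codeword preserve the lattice -/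
theorem sign_mem {c : Finset GolayPt} (hc : c ∈ Sup) {x : GolayPt → ℤ} (hx : x ∈ leechLattice) :
    (fun i => if i ∈ c then -x i else x i) ∈ leechLattice := by
  obtain ⟨m, C, z, hm, hC, hz, rfl⟩ := mem_leech'.1 hx
  have hcard := even_inter_card hC hc
  rcases hm with rfl | rfl
  · refine mem_leech.2 ⟨0, C, fun i => if i ∈ c then - z i - ind C i else z i, hC, ?_, ?_⟩
    · have h1 : ∑ i, (if i ∈ c then - z i - ind C i else z i) =
          ∑ i, z i - 2 * ∑ i ∈ c, z i - ((C ∩ c).card : ℤ) := by
        have h2 : ∀ i, (if i ∈ c then - z i - ind C i else z i) =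
            z i - 2 * (if i ∈ c then z i else 0) - ind (C ∩ c) i := by
          intro i
          unfold ind
          by_cases h1 : i ∈ c <;> by_cases h2 : i ∈ C <;> simp [h1, h2] <;> ring
        rw [Finset.sum_congr rfl (fun i _ => h2 i), Finset.sum_sub_distrib, Finset.sum_sub_distrib,
          ← Finset.mul_sum, ind_sum, Finset.sum_ite_mem, Finset.univ_inter]
      rw [h1]
      obtain ⟨k, hk⟩ := hcard
      rw [hk]; push_cast
      unfold Int.ModEq at *
      omega
    · funext i
      unfold vec ind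
      by_cases h1 : i ∈ c <;> by_cases h2 : i ∈ C <;> simp [h1, h2] <;> ring
  · -- m = 1 : -(1 + 2 c + 4 z) = 1 + 2 (1 - c) + 4 (-z - 1)
    refine mem_leech.2 ⟨1, symmDiff C c, fun i => if i ∈ c then - z i - 1 else z i,
      symmDiff_mem_supports hC hc, ?_, ?_⟩
    · have h1 : ∑ i, (if i ∈ c then - z i - 1 else z i) =
          ∑ i, z i - 2 * ∑ i ∈ c, z i - (c.card : ℤ) := by
        have h2 : ∀ i, (if i ∈ c then - z i - 1 else z i) =
            z i - 2 * (if i ∈ c then z i else 0) - ind c i := by
          intro i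
          unfold ind
          by_cases h1 : i ∈ c <;> simp [h1] <;> ring
        rw [Finset.sum_congr rfl (fun i _ => h2 i), Finset.sum_sub_distrib, Finset.sum_sub_distrib,
          ← Finset.mul_sum, ind_sum, Finset.sum_ite_mem, Finset.univ_inter]
      rw [h1]
      obtain ⟨k, hk⟩ := card_sup hc
      rw [hk]
      unfold Int.ModEq at *
      omega
    · funext i
      unfold vec ind
      by_cases h1 : i ∈ c <;> by_cases h2 : i ∈ C <;> simp [h1, h2, Finset.mem_symmDiff] <;> ring

end CfsgL.Leech
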