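import Mathlib
/-!
Counting points of a product by digits of a big number.
-/
set_option autoImplicit false
namespace CfsgL.Digits
open Finset

/-- digits of a sum of small multiples of powers -/
theorem digit_sum (B : ℕ) (hB : 0 < B) (c : ℕ → ℕ) (hc : ∀ e, c e < B) (E e : ℕ) (he : e < E) :
    (∑ j ∈ range E, c j * B ^ j) / B ^ e % B = c e := by
  have hlow : ∀ m, ∑ j ∈ range m, c j * B ^ j < B ^ m := by
    intro m
    induction m with
    | zero => simp
    | succ m ih =>
      rw [sum_range_succ, pow_succ]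
      have h1 : c m * B ^ m ≤ (B - 1) * B ^ m := Nat.mul_le_mul_right _ (by have := hc m; omega)
      calc _ < B ^ m + (B - 1) * B ^ m := by omega
        _ = B ^ m * B := by
          have : B ^ m + (B - 1) * B ^ m = (1 + (B - 1)) * B ^ m := by ring
          rw [this, Nat.add_sub_cancel' hB, mul_comm]
  have hsplit : ∃ R, ∑ j ∈ range E, c j * B ^ j =
      (∑ j ∈ range e, c j * B ^ j) + B ^ e * (c e + B * R) := by
    obtain ⟨k, rfl⟩ := Nat.exists_eq_add_of_lt he
    refine ⟨∑ j ∈ range k, c (e + 1 + j) * B ^ j, ?_⟩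
    have h1 : e + k + 1 = e + 1 + k := by ring
    rw [h1, sum_range_add, sum_range_succ, mul_add, mul_sum, mul_sum]
    have : ∀ j ∈ range k, c (e + 1 + j) * B ^ (e + 1 + j) =
        B ^ e * (B * (c (e + 1 + j) * B ^ j)) := by
      intro j _; rw [pow_add, pow_succ]; ring
    rw [sum_congr rfl this]; ring
  obtain ⟨R, hR⟩ := hsplit
  rw [hR, Nat.add_mul_div_left _ _ (by positivity), Nat.div_eq_of_lt (hlow e), zero_add,
    Nat.add_mul_mod_self_left, Nat.mod_eq_of_lt (hc e)]

/-- digits of a weight enumerator -/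
theorem digit_card {X : Type*} (S : Finset X) (w : X → ℕ) (B : ℕ) (hB : S.card < B) (e : ℕ) :
    (∑ x ∈ S, B ^ w x) / B ^ e % B = (S.filter (fun x => w x = e)).card := by
  classical
  have hB0 : 0 < B := by omega
  set E := (S.sup w) + e + 1 with hE
  have h1 : ∑ x ∈ S, B ^ w x = ∑ j ∈ range E, (S.filter (fun x => w x = j)).card * B ^ j := by
    rw [← sum_fiberwise_of_maps_to (s := S) (t := range E) (g := w)]
    · apply sum_congr rfl
      intro j _
      rw [← smul_eq_mul, ← sum_const]
      apply sum_congr rfl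
      intro x hx
      rw [(mem_filter.1 hx).2]
    · intro x hx
      rw [mem_range]
      have := le_sup (f := w) hx
      omega
  rw [h1]
  exact digit_sum B hB0 (fun j => (S.filter (fun x => w x = j)).card)
    (fun j => lt_of_le_of_lt (card_filter_le _ _) hB) E e (by omega)

/-- weight enumerators of products -/
theorem prod_enum {ι : Type*} [Fintype ι] [DecidableEq ι] (D : ι → Finset ℤ) (g : ℤ → ℕ) (B : ℕ) :
    ∑ x ∈ Fintype.piFinset D, B ^ (∑ i, g (x i)) = ∏ i, ∑ d ∈ D i, B ^ g d := by
  rw [prod_univ_sum]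
  apply sum_congr rfl
  intro x _
  rw [prod_pow_eq_pow_sum]

end CfsgL.Digits
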