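import Cfsg.Agent.L.Leech.Basic
import Cfsg.Agent.L.Leech.Digits
import Cfsg.Agent.L.Golay.Hexads
/-!
Counting Leech lattice vectors of given norm and local shape.
-/
set_option autoImplicit false
namespace CfsgL.Leech
open Cfsg CfsgL.Golay CfsgL.Digits Finset

/-- all supports as a finset -/
noncomputable def SupF : Finset (Finset GolayPt) := (Set.toFinite Sup).toFinset

theorem mem_SupF {C : Finset GolayPt} : C ∈ SupF ↔ C ∈ Sup := by simp [SupF]

theorem card_SupF_filter (w n : ℕ)
    (h : (wordsOfWeight (golayCode : Set (GolayPt → ZMod 2)) w).ncard = n) :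
    (SupF.filter (fun C => C.card = w)).card = n := by
  rw [← h, ← Set.ncard_coe_finset]
  congr 1
  ext C
  rw [Finset.mem_coe, Finset.mem_filter, mem_SupF]
  exact Iff.rfl

/-- sum over the supports of a function of the weight -/
theorem sum_SupF (F : ℕ → ℕ) :
    ∑ C ∈ SupF, F C.card = F 0 + 759 * F 8 + 2576 * F 12 + 759 * F 16 + F 24 := by
  have h1 : ∀ C ∈ SupF, C.card ∈ ({0, 8, 12, 16, 24} : Finset ℕ) := by
    intro C hC
    rw [mem_SupF] at hC
    simp only [mem_insert, mem_singleton]
    exact card_of_mem_supports hC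
  rw [← sum_fiberwise_of_maps_to h1]
  have h2 : ∀ w ∈ ({0, 8, 12, 16, 24} : Finset ℕ),
      ∑ C ∈ SupF.filter (fun C => C.card = w), F C.card =
        (SupF.filter (fun C => C.card = w)).card * F w := by
    intro w _
    rw [← smul_eq_mul, ← sum_const]
    apply sum_congr rfl
    intro C hC
    rw [(mem_filter.1 hC).2]
  rw [sum_congr rfl h2]
  have e0 := card_SupF_filter 0 1 (by rw [ncard_wordsOfWeight]; decide +kernel)
  have e8 := card_SupF_filter 8 759 (by rw [ncard_wordsOfWeight]; exact cnt8)
  have e12 := card_SupF_filter 12 2576 (by rw [ncard_wordsOfWeight]; exact cnt12)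
  have e16 := card_SupF_filter 16 759 (by rw [ncard_wordsOfWeight]; exact cnt16)
  have e24 := card_SupF_filter 24 1 (by rw [ncard_wordsOfWeight]; decide +kernel)
  rw [sum_insert (by decide), sum_insert (by decide), sum_insert (by decide),
    sum_insert (by decide), sum_singleton, e0, e8, e12, e16, e24]
  ring

theorem card_SupF : SupF.card = 4096 := by
  have := sum_SupF (fun _ => 1)
  rw [card_eq_sum_ones, this]

theorem card_pt : Fintype.card GolayPt = 24 := by decide

/-- product over points of a two-valued function -/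
theorem prod_two (C : Finset GolayPt) (a b : ℕ) :
    ∏ i, (if i ∈ C then a else b) = a ^ C.card * b ^ (24 - C.card) := by
  rw [prod_ite, prod_const, prod_const]
  have h1 : (univ.filter (fun i => i ∈ C)) = C := by ext; simp
  have h2 : (univ.filter (fun i => ¬ i ∈ C)) = Cᶜ := by ext; simp
  rw [h1, h2, card_compl, card_pt]

/-! ### Odd vectors -/

/-- weight of an odd coordinate -/
def gO (d : ℤ) : ℕ := (d.natAbs ^ 2 - 1) / 8

/-- positions congruent to 3 modulo 4 -/
def pat3 (x : GolayPt → ℤ) : Finset GolayPt := univ.filter (fun i => x i % 4 = 3)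

/-- odd vectors with coordinates in `D ∪ -D` -/
noncomputable def TO (D : Finset ℤ) (e : ℕ) : Finset (GolayPt → ℤ) :=
  (Fintype.piFinset (fun _ => D ∪ D.image (fun d => -d))).filter
    (fun x => pat3 x ∈ SupF ∧ ∑ i, gO (x i) = e)

theorem card_TO (B : ℕ) (hB : 4 ^ 24 < B) (D : Finset ℤ) (hD : ∀ d ∈ D, d % 4 = 1)
    (hc : D.card ≤ 4) (e : ℕ) :
    (TO D e).card = 4096 * ((∑ d ∈ D, B ^ gO d) ^ 24 / B ^ e % B) := by
  classical
  have hmaps : ∀ x ∈ TO D e, pat3 x ∈ SupF := fun x hx => (mem_filter.1 hx).2.1
  rw [card_eq_sum_card_fiberwise hmaps]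
  have hneg : ∀ d ∈ D.image (fun d => -d), d % 4 = 3 := by
    intro d hd
    obtain ⟨c, hc, rfl⟩ := mem_image.1 hd
    have := hD c hc
    omega
  have h1 : ∀ C ∈ SupF, ((TO D e).filter (fun x => pat3 x = C)).card =
      (∑ d ∈ D, B ^ gO d) ^ 24 / B ^ e % B := by
    intro C hC
    set Dm : GolayPt → Finset ℤ := fun i => if i ∈ C then D.image (fun d => -d) else D with hDm
    have h2 : (TO D e).filter (fun x => pat3 x = C) =
        (Fintype.piFinset Dm).filter (fun x => ∑ i, gO (x i) = e) := by
      ext x
      simp only [TO, mem_filter, Fintype.mem_piFinset]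
      constructor
      · rintro ⟨⟨h1, h2, h3⟩, h4⟩
        refine ⟨fun i => ?_, h3⟩
        have h5 := mem_union.1 (h1 i)
        have h6 : i ∈ C ↔ x i % 4 = 3 := by
          rw [← h4]; simp [pat3]
        rw [hDm]
        by_cases hi : i ∈ C
        · simp only [hi, if_true]
          rcases h5 with h5 | h5
          · have := hD _ h5
            have := h6.1 hi
            omega
          · exact h5
        · simp only [hi, if_false]
          rcases h5 with h5 | h5
          · exact h5
          · exact absurd (h6.2 (hneg _ h5)) hi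
      · rintro ⟨h1, h3⟩
        have h4 : pat3 x = C := by
          ext i
          simp only [pat3, mem_filter, mem_univ, true_and]
          have h5 := h1 i
          rw [hDm] at h5
          by_cases hi : i ∈ C
          · simp only [hi, if_true] at h5
            exact ⟨fun _ => hi, fun _ => hneg _ h5⟩
          · simp only [hi, if_false] at h5
            have := hD _ h5
            constructor
            · intro h; omega
            · intro h; exact absurd h hi
        refine ⟨⟨fun i => ?_, by rw [h4]; exact hC, h3⟩, h4⟩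
        have h5 := h1 i
        rw [hDm] at h5
        by_cases hi : i ∈ C
        · simp only [hi, if_true] at h5
          exact mem_union_right _ h5
        · simp only [hi, if_false] at h5
          exact mem_union_left _ h5
    rw [h2, ← digit_card (Fintype.piFinset Dm) (fun x => ∑ i, gO (x i)) B]
    · rw [prod_enum]
      have h3 : ∀ i, ∑ d ∈ Dm i, B ^ gO d = ∑ d ∈ D, B ^ gO d := by
        intro i
        rw [hDm]
        by_cases hi : i ∈ C
        · simp only [hi, if_true]
          rw [sum_image (fun a _ b _ h => neg_injective h)]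
          apply sum_congr rfl
          intro d _
          unfold gO
          rw [Int.natAbs_neg]
        · simp only [hi, if_false]
      rw [prod_congr rfl (fun i _ => h3 i), prod_const, card_univ, card_pt]
    · rw [Fintype.card_piFinset]
      have h4 : ∀ i ∈ (univ : Finset GolayPt), (Dm i).card ≤ 4 := by
        intro i _
        rw [hDm]
        by_cases hi : i ∈ C
        · simp only [hi, if_true]
          exact card_image_le.trans hc
        · simp only [hi, if_false]; exact hc
      calc ∏ i, (Dm i).card ≤ 4 ^ (univ : Finset GolayPt).card := prod_le_pow_card _ _ _ h4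
        _ < B := by rw [card_univ, card_pt]; exact hB
  rw [sum_congr rfl h1, sum_const, card_SupF, smul_eq_mul]

/-! ### Even vectors (halved) -/

/-- weight of a halved even coordinate -/
def gE (d : ℤ) : ℕ := 200 * d.natAbs ^ 2 + (d + 4).toNat

/-- positions of odd entries -/
def patO (y : GolayPt → ℤ) : Finset GolayPt := univ.filter (fun i => y i % 2 = 1)

/-- halved even vectors with even coordinates in `De`, odd ones in `Do` -/
noncomputable def TE (De Do : Finset ℤ) (n : ℤ) : Finset (GolayPt → ℤ) :=
  (Fintype.piFinset (fun _ => De ∪ Do)).filter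
    (fun y => patO y ∈ SupF ∧ (4 : ℤ) ∣ ∑ i, y i ∧ ∑ i, y i ^ 2 = n)

/-- the number for a fixed support of size `c` -/
def FE (B a b : ℕ) (n c : ℕ) : ℕ :=
  ∑ k ∈ range 49, (a ^ c * b ^ (24 - c)) / B ^ (200 * n + 4 * k) % B

theorem gE_sum (y : GolayPt → ℤ) (hy : ∀ i, -4 ≤ y i ∧ y i ≤ 4) :
    ((∑ i, gE (y i) : ℕ) : ℤ) = 200 * ∑ i, y i ^ 2 + (∑ i, y i + 96) := by
  unfold gE
  push_cast
  rw [mul_sum]
  have h : ∀ i, (200 * |y i| ^ 2 + ((y i + 4).toNat : ℤ)) = 200 * y i ^ 2 + (y i + 4) := by
    intro i
    have := hy i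
    rw [sq_abs, Int.toNat_of_nonneg (by omega)]
  rw [sum_congr rfl (fun i _ => h i), sum_add_distrib, sum_add_distrib, sum_const, card_univ,
    card_pt]
  simp

theorem card_TE (B : ℕ) (hB : 5 ^ 24 < B) (De Do : Finset ℤ) (hDe : ∀ d ∈ De, d % 2 = 0 ∧ -4 ≤ d ∧ d ≤ 4)
    (hDo : ∀ d ∈ Do, d % 2 = 1 ∧ -4 ≤ d ∧ d ≤ 4) (hce : De.card ≤ 5) (hco : Do.card ≤ 5) (n : ℕ)
    (a b : ℕ) (ha : ∑ d ∈ Do, B ^ gE d = a) (hb : ∑ d ∈ De, B ^ gE d = b) :
    (TE De Do n).card = FE B a b n 0 + 759 * FE B a b n 8 + 2576 * FE B a b n 12 +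
      759 * FE B a b n 16 + FE B a b n 24 := by
  classical
  rw [← sum_SupF (FE B a b n)]
  have hmaps : ∀ x ∈ TE De Do n, patO x ∈ SupF := fun x hx => (mem_filter.1 hx).2.1
  rw [card_eq_sum_card_fiberwise hmaps]
  apply sum_congr rfl
  intro C hC
  set Dm : GolayPt → Finset ℤ := fun i => if i ∈ C then Do else De with hDm
  have hDmb : ∀ i, ∀ d ∈ Dm i, -4 ≤ d ∧ d ≤ 4 := by
    intro i d hd
    rw [hDm] at hd
    by_cases hi : i ∈ C
    · simp only [hi, if_true] at hd; exact (hDo d hd).2
    · simp only [hi, if_false] at hd; exact (hDe d hd).2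
  have h2 : (TE De Do n).filter (fun x => patO x = C) =
      (Fintype.piFinset Dm).filter (fun y => (4 : ℤ) ∣ ∑ i, y i ∧ ∑ i, y i ^ 2 = (n : ℤ)) := by
    ext x
    simp only [TE, mem_filter, Fintype.mem_piFinset]
    constructor
    · rintro ⟨⟨h1, h2, h3⟩, h4⟩
      refine ⟨fun i => ?_, h3⟩
      have h5 := mem_union.1 (h1 i)
      have h6 : i ∈ C ↔ x i % 2 = 1 := by
        rw [← h4]; simp [patO]
      rw [hDm]
      by_cases hi : i ∈ C
      · simp only [hi, if_true]
        rcases h5 with h5 | h5
        · have := hDe _ h5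
          have := h6.1 hi
          omega
        · exact h5
      · simp only [hi, if_false]
        rcases h5 with h5 | h5
        · exact h5
        · exact absurd (h6.2 (hDo _ h5).1) hi
    · rintro ⟨h1, h3⟩
      have h4 : patO x = C := by
        ext i
        simp only [patO, mem_filter, mem_univ, true_and]
        have h5 := h1 i
        rw [hDm] at h5
        by_cases hi : i ∈ C
        · simp only [hi, if_true] at h5
          exact ⟨fun _ => hi, fun _ => (hDo _ h5).1⟩
        · simp only [hi, if_false] at h5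
          have := hDe _ h5
          constructor
          · intro h; omega
          · intro h; exact absurd h hi
      refine ⟨⟨fun i => ?_, by rw [h4]; exact hC, h3⟩, h4⟩
      have h5 := h1 i
      rw [hDm] at h5
      by_cases hi : i ∈ C
      · simp only [hi, if_true] at h5
        exact mem_union_right _ h5
      · simp only [hi, if_false] at h5
        exact mem_union_left _ h5
  rw [h2]
  have h3 : (Fintype.piFinset Dm).filter (fun y => (4 : ℤ) ∣ ∑ i, y i ∧ ∑ i, y i ^ 2 = (n : ℤ)) =
      (range 49).biUnion (fun k => (Fintype.piFinset Dm).filter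
        (fun y => ∑ i, gE (y i) = 200 * n + 4 * k)) := by
    ext y
    simp only [mem_filter, mem_biUnion, mem_range]
    constructor
    · rintro ⟨h1, h4, h5⟩
      have hyb : ∀ i, -4 ≤ y i ∧ y i ≤ 4 := fun i => hDmb i _ (Fintype.mem_piFinset.1 h1 i)
      have h6 := gE_sum y hyb
      have h7 : ∑ i : GolayPt, (-4 : ℤ) ≤ ∑ i, y i := sum_le_sum (fun i _ => (hyb i).1)
      have h8 : ∑ i, y i ≤ ∑ i : GolayPt, (4 : ℤ) := sum_le_sum (fun i _ => (hyb i).2)
      rw [sum_const, card_univ, card_pt] at h7 h8
      simp only [nsmul_eq_mul] at h7 h8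
      push_cast at h7 h8
      obtain ⟨c, hc⟩ := h4
      rw [h5] at h6
      refine ⟨((∑ i, y i + 96) / 4).toNat, by omega, h1, by omega⟩
    · rintro ⟨k, hk, h1, h4⟩
      have hyb : ∀ i, -4 ≤ y i ∧ y i ≤ 4 := fun i => hDmb i _ (Fintype.mem_piFinset.1 h1 i)
      have h6 := gE_sum y hyb
      have h7 : ∑ i : GolayPt, (-4 : ℤ) ≤ ∑ i, y i := sum_le_sum (fun i _ => (hyb i).1)
      have h8 : ∑ i, y i ≤ ∑ i : GolayPt, (4 : ℤ) := sum_le_sum (fun i _ => (hyb i).2)
      rw [sum_const, card_univ, card_pt] at h7 h8
      simp only [nsmul_eq_mul] at h7 h8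
      push_cast at h7 h8
      rw [h4] at h6
      push_cast at h6
      refine ⟨h1, ?_, ?_⟩
      · omega
      · omega
  rw [h3, card_biUnion]
  · unfold FE
    apply sum_congr rfl
    intro k _
    rw [← digit_card (Fintype.piFinset Dm) (fun x => ∑ i, gE (x i)) B]
    · rw [prod_enum]
      have h4 : ∀ i, ∑ d ∈ Dm i, B ^ gE d = if i ∈ C then a else b := by
        intro i
        rw [hDm]
        by_cases hi : i ∈ C
        · simp only [hi, if_true]; exact ha
        · simp only [hi, if_false]; exact hb
      rw [prod_congr rfl (fun i _ => h4 i), prod_two]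
    · rw [Fintype.card_piFinset]
      have h4 : ∀ i ∈ (univ : Finset GolayPt), (Dm i).card ≤ 5 := by
        intro i _
        rw [hDm]
        by_cases hi : i ∈ C
        · simp only [hi, if_true]; exact hco
        · simp only [hi, if_false]; exact hce
      calc ∏ i, (Dm i).card ≤ 5 ^ (univ : Finset GolayPt).card := prod_le_pow_card _ _ _ h4
        _ < B := by rw [card_univ, card_pt]; exact hB
  · intro k _ l _ hkl
    rw [Function.onFun, Finset.disjoint_left]
    intro y hy hy'
    rw [mem_filter] at hy hy'
    apply hkl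
    have := hy.2.symm.trans hy'.2
    omega

end CfsgL.Leech
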