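import Cfsg.Agent.L.Leech.Count
/-!
The numbers of vectors of norms 32, 48, 64 in the Leech lattice, and shape census.
-/
set_option autoImplicit false
set_option maxHeartbeats 400000
namespace CfsgL.Leech
open Cfsg CfsgL.Golay CfsgL.Digits Finset

theorem odd_iff {x : GolayPt → ℤ} : (x ∈ leechLattice ∧ ¬ (2 : ℤ) ∣ x none) ↔
    (pat3 x ∈ Sup ∧ (∀ i, x i % 2 = 1) ∧ (16 : ℤ) ∣ sqNorm x) := by
  constructor
  · rintro ⟨hx, h2⟩
    have hn := norm_dvd hx
    obtain ⟨m, C, z, hm, hC, hz, rfl⟩ := mem_leech'.1 hx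
    have hm1 : m = 1 := by
      rcases hm with rfl | rfl
      · exfalso; apply h2; unfold vec; exact ⟨ind C none + 2 * z none, by ring⟩
      · rfl
    subst hm1
    refine ⟨?_, fun i => ?_, hn⟩
    · have : pat3 (vec 1 C z) = C := by
        ext i
        simp only [pat3, mem_filter, mem_univ, true_and]
        unfold vec ind
        by_cases hi : i ∈ C
        · simp only [hi, if_true, iff_true]; omega
        · simp only [hi, if_false, iff_false]; omega
      rw [this]; exact hC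
    · unfold vec; omega
  · rintro ⟨h1, h2, h3⟩
    set C := pat3 x with hCdef
    have hz : ∀ i, ∃ z : ℤ, x i = 1 + 2 * ind C i + 4 * z := by
      intro i
      have h4 := h2 i
      unfold ind
      by_cases hi : i ∈ C
      · rw [if_pos hi]
        rw [hCdef, pat3, mem_filter] at hi
        exact ⟨(x i - 3) / 4, by omega⟩
      · rw [if_neg hi]
        have : ¬ (x i % 4 = 3) := fun h => hi (by
          rw [hCdef, pat3, mem_filter]; exact ⟨mem_univ _, h⟩)
        exact ⟨(x i - 1) / 4, by omega⟩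
    choose z hz using hz
    have hx : x = vec 1 C z := funext hz
    refine ⟨mem_leech.2 ⟨1, C, z, h1, ?_, hx⟩, ?_⟩
    · rw [hx, sqNorm_vec] at h3
      obtain ⟨c, hc⟩ := card_sup h1
      rw [hc] at h3
      unfold Int.ModEq
      omega
    · have := h2 none
      omega

theorem even_iff {y : GolayPt → ℤ} : (fun i => 2 * y i) ∈ leechLattice ↔
    (patO y ∈ Sup ∧ (4 : ℤ) ∣ ∑ i, y i) := by
  constructor
  · intro hx
    obtain ⟨m, C, z, hm, hC, hz, he⟩ := mem_leech'.1 hx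
    have hm0 : m = 0 := by
      rcases hm with rfl | rfl
      · rfl
      · have := congrFun he none
        unfold vec at this
        omega
    subst hm0
    have hy : ∀ i, y i = ind C i + 2 * z i := by
      intro i
      have := congrFun he i
      unfold vec at this
      omega
    have hpat : patO y = C := by
      ext i
      simp only [patO, mem_filter, mem_univ, true_and]
      rw [hy i]
      unfold ind
      by_cases hi : i ∈ C
      · simp only [hi, if_true, iff_true]; omega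
      · simp only [hi, if_false, iff_false]; omega
    refine ⟨by rw [hpat]; exact hC, ?_⟩
    rw [sum_congr rfl (fun i _ => hy i), sum_add_distrib, ← mul_sum, ind_sum]
    obtain ⟨c, hc⟩ := card_sup hC
    obtain ⟨k, hk⟩ := hz.dvd
    rw [hc]
    exact ⟨c - k, by linarith⟩
  · rintro ⟨h1, h2⟩
    set C := patO y with hCdef
    have hz : ∀ i, ∃ z : ℤ, y i = ind C i + 2 * z := by
      intro i
      unfold ind
      by_cases hi : i ∈ C
      · rw [if_pos hi]
        rw [hCdef, patO, mem_filter] at hi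
        exact ⟨(y i - 1) / 2, by omega⟩
      · rw [if_neg hi]
        have : ¬ (y i % 2 = 1) := fun h => hi (by
          rw [hCdef, patO, mem_filter]; exact ⟨mem_univ _, h⟩)
        exact ⟨y i / 2, by omega⟩
    choose z hz using hz
    refine mem_leech.2 ⟨0, C, z, h1, ?_, ?_⟩
    · rw [sum_congr rfl (fun i _ => hz i), sum_add_distrib, ← mul_sum, ind_sum] at h2
      obtain ⟨c, hc⟩ := card_sup h1
      rw [hc] at h2
      unfold Int.ModEq
      omega
    · funext i
      unfold vec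
      rw [hz i]; ring

theorem even_half {x : GolayPt → ℤ} (hx : x ∈ leechLattice) (h : (2 : ℤ) ∣ x none) :
    ∃ y : GolayPt → ℤ, x = fun i => 2 * y i := by
  obtain ⟨m, C, z, hm, hC, hz, rfl⟩ := mem_leech'.1 hx
  rcases hm with rfl | rfl
  · exact ⟨fun i => ind C i + 2 * z i, by funext i; unfold vec; ring⟩
  · exfalso; unfold vec at h; omega

theorem sq_le_norm (x : GolayPt → ℤ) (i : GolayPt) : x i ^ 2 ≤ sqNorm x :=
  single_le_sum (f := fun i => x i ^ 2) (fun i _ => sq_nonneg (x i)) (mem_univ i)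

theorem gO_spec {d : ℤ} (h : d % 2 = 1) : (8 * gO d + 1 : ℤ) = d ^ 2 := by
  unfold gO
  have h1 : d.natAbs % 2 = 1 := by omega
  have h2 : d.natAbs ^ 2 % 8 = 1 := by
    have h3 : d.natAbs % 8 = 1 ∨ d.natAbs % 8 = 3 ∨ d.natAbs % 8 = 5 ∨ d.natAbs % 8 = 7 := by omega
    rw [Nat.pow_mod]
    rcases h3 with h | h | h | h <;> rw [h]
  have h3 : 8 * ((d.natAbs ^ 2 - 1) / 8) + 1 = d.natAbs ^ 2 := by omega
  have h4 : ((d.natAbs ^ 2 : ℕ) : ℤ) = d ^ 2 := by push_cast; exact sq_abs d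
  rw [← h4]
  have h5 : ((8 * ((d.natAbs ^ 2 - 1) / 8) + 1 : ℕ) : ℤ) = ((d.natAbs ^ 2 : ℕ) : ℤ) := by rw [h3]
  rw [← h5]
  push_cast; ring

theorem gO_sum {x : GolayPt → ℤ} (h : ∀ i, x i % 2 = 1) :
    ((24 + 8 * ∑ i, gO (x i) : ℕ) : ℤ) = sqNorm x := by
  unfold sqNorm
  rw [sum_congr rfl (fun i _ => (gO_spec (h i)).symm), sum_add_distrib, ← mul_sum, sum_const,
    card_univ, card_pt]
  push_cast; ring

/-- odd vectors with given local shape -/
theorem ncard_odd (B : ℕ) (hB : 4 ^ 24 < B) (D : Finset ℤ) (hD : ∀ d ∈ D, d % 4 = 1) (hc : D.card ≤ 4) (e N : ℕ)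
    (hN : N = 24 + 8 * e) (h16 : 16 ∣ N) (v : ℕ)
    (hv : 4096 * ((∑ d ∈ D, B ^ gO d) ^ 24 / B ^ e % B) = v) :
    {x : GolayPt → ℤ | x ∈ leechLattice ∧ sqNorm x = N ∧
      ∀ i, x i ∈ D ∪ D.image (fun d => -d)}.ncard = v := by
  have h0 : (TO D e).card = v := (card_TO B hB D hD hc e).trans hv
  rw [← h0, ← Set.ncard_coe_finset]
  congr 1
  have hodd : ∀ d ∈ D ∪ D.image (fun d => -d), d % 2 = 1 := by
    intro d hd
    rcases mem_union.1 hd with h | h
    · have := hD d h; omega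
    · obtain ⟨c, hc, rfl⟩ := mem_image.1 h
      have := hD c hc; omega
  ext x
  rw [Set.mem_ofPred_eq, mem_coe, TO, mem_filter, Fintype.mem_piFinset, mem_SupF]
  constructor
  · rintro ⟨h1, h2, h3⟩
    have ho : ∀ i, x i % 2 = 1 := fun i => hodd _ (h3 i)
    obtain ⟨h4, _, _⟩ := odd_iff.1 ⟨h1, by have := ho none; omega⟩
    refine ⟨h3, h4, ?_⟩
    have := gO_sum ho
    rw [h2, hN] at this
    have := Int.ofNat.inj this
    omega
  · rintro ⟨h1, h2, h3⟩
    have ho : ∀ i, x i % 2 = 1 := fun i => hodd _ (h1 i)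
    have h4 := gO_sum ho
    rw [h3, ← hN] at h4
    refine ⟨(odd_iff.2 ⟨h2, ho, ?_⟩).1, h4.symm, h1⟩
    rw [← h4]; exact_mod_cast h16

/-- even vectors with given local shape -/
theorem ncard_even (B : ℕ) (hB : 5 ^ 24 < B) (De Do : Finset ℤ) (hDe : ∀ d ∈ De, d % 2 = 0 ∧ -4 ≤ d ∧ d ≤ 4)
    (hDo : ∀ d ∈ Do, d % 2 = 1 ∧ -4 ≤ d ∧ d ≤ 4) (hce : De.card ≤ 5) (hco : Do.card ≤ 5) (n : ℕ)
    (a b : ℕ) (ha : ∑ d ∈ Do, B ^ gE d = a) (hb : ∑ d ∈ De, B ^ gE d = b) (v : ℕ)
    (hv : FE B a b n 0 + 759 * FE B a b n 8 + 2576 * FE B a b n 12 + 759 * FE B a b n 16 +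
      FE B a b n 24 = v) :
    {x : GolayPt → ℤ | x ∈ leechLattice ∧ sqNorm x = 4 * n ∧
      ∃ y : GolayPt → ℤ, x = (fun i => 2 * y i) ∧ ∀ i, y i ∈ De ∪ Do}.ncard = v := by
  have h0 : (TE De Do n).card = v := (card_TE B hB De Do hDe hDo hce hco n a b ha hb).trans hv
  clear hv ha hb hB
  rw [← h0, ← Set.ncard_coe_finset]
  have hinj : Function.Injective (fun (y : GolayPt → ℤ) => fun i => 2 * y i) := by
    intro y y' h
    funext i
    have := congrFun h i
    simp only at this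
    omega
  rw [← Set.ncard_image_of_injective (↑(TE De Do n) : Set (GolayPt → ℤ)) hinj]
  congr 1
  ext x
  rw [Set.mem_ofPred_eq, Set.mem_image]
  have hs : ∀ y : GolayPt → ℤ, sqNorm (fun i => 2 * y i) = 4 * ∑ i, y i ^ 2 := by
    intro y
    unfold sqNorm
    rw [mul_sum]
    apply sum_congr rfl
    intro i _; ring
  constructor
  · rintro ⟨h1, h2, y, rfl, h3⟩
    refine ⟨y, ?_, rfl⟩
    rw [mem_coe, TE, mem_filter, Fintype.mem_piFinset, mem_SupF]
    obtain ⟨h4, h5⟩ := even_iff.1 h1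
    rw [hs] at h2
    exact ⟨h3, h4, h5, by linarith⟩
  · rintro ⟨y, hy, rfl⟩
    rw [mem_coe, TE, mem_filter, Fintype.mem_piFinset, mem_SupF] at hy
    obtain ⟨h1, h2, h3, h4⟩ := hy
    exact ⟨even_iff.2 ⟨h2, h3⟩, by rw [hs, h4], y, rfl, h1⟩

/-- full local domains -/
def Dodd : Finset ℤ := {1, -3, 5, -7}
def DeF : Finset ℤ := {0, 2, -2, 4, -4}
def DoF : Finset ℤ := {1, -1, 3, -3}

theorem total (B : ℕ) (hB : 5 ^ 24 < B) (n N : ℕ) (hN : N = 4 * n) (hn : n ≤ 16) (e : ℕ)
    (he : N = 24 + 8 * e) (h16 : 16 ∣ N) (v w a b : ℕ)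
    (hv : 4096 * ((∑ d ∈ Dodd, B ^ gO d) ^ 24 / B ^ e % B) = v)
    (ha : ∑ d ∈ DoF, B ^ gE d = a) (hb : ∑ d ∈ DeF, B ^ gE d = b)
    (hw : FE B a b n 0 + 759 * FE B a b n 8 + 2576 * FE B a b n 12 + 759 * FE B a b n 16 +
      FE B a b n 24 = w) :
    {x : GolayPt → ℤ | x ∈ leechLattice ∧ sqNorm x = N}.ncard = v + w := by
  have h1 := ncard_odd B (lt_trans (by norm_num) hB) Dodd (by decide) (by decide) e N he h16 v hv
  have h2 := ncard_even B hB DeF DoF (by decide) (by decide) (by decide) (by decide) n a b ha hb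
    w hw
  clear hw hv ha hb hB
  have hN64 : N ≤ 64 := by omega
  have hset : {x : GolayPt → ℤ | x ∈ leechLattice ∧ sqNorm x = N} =
      {x : GolayPt → ℤ | x ∈ leechLattice ∧ sqNorm x = N ∧
        ∀ i, x i ∈ Dodd ∪ Dodd.image (fun d => -d)} ∪
      {x : GolayPt → ℤ | x ∈ leechLattice ∧ sqNorm x = 4 * n ∧
        ∃ y : GolayPt → ℤ, x = (fun i => 2 * y i) ∧ ∀ i, y i ∈ DeF ∪ DoF} := by
    ext x
    rw [Set.mem_union, Set.mem_ofPred_eq, Set.mem_ofPred_eq, Set.mem_ofPred_eq]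
    constructor
    · rintro ⟨hx, hn'⟩
      have hb : ∀ i, x i ^ 2 ≤ 64 := by
        intro i
        have := sq_le_norm x i
        rw [hn'] at this
        have : (N : ℤ) ≤ 64 := by exact_mod_cast hN64
        linarith
      have hb' : ∀ i, -8 ≤ x i ∧ x i ≤ 8 := by
        intro i
        have := hb i
        constructor <;> nlinarith
      by_cases h2 : (2 : ℤ) ∣ x none
      · right
        obtain ⟨y, rfl⟩ := even_half hx h2
        refine ⟨hx, by rw [hn', hN]; push_cast; rfl, y, rfl, fun i => ?_⟩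
        have := hb' i
        have h3 : -4 ≤ y i ∧ y i ≤ 4 := by simp only at this; omega
        have h4 : ∀ d : ℤ, -4 ≤ d → d ≤ 4 → d ∈ DeF ∪ DoF := by
          intro d h1 h2
          interval_cases d <;> decide
        exact h4 _ h3.1 h3.2
      · left
        refine ⟨hx, hn', fun i => ?_⟩
        obtain ⟨_, h3, _⟩ := odd_iff.1 ⟨hx, h2⟩
        have h4 : ∀ d : ℤ, -8 ≤ d → d ≤ 8 → d % 2 = 1 → d ∈ Dodd ∪ Dodd.image (fun d => -d) := by
          intro d h1 h2 h3
          interval_cases d <;> first | decide | (exfalso; revert h3; decide)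
        exact h4 _ (hb' i).1 (hb' i).2 (h3 i)
    · rintro (⟨h1, h2, _⟩ | ⟨h1, h2, _⟩)
      · exact ⟨h1, h2⟩
      · exact ⟨h1, by rw [h2, hN]; push_cast; rfl⟩
  have hfin : ∀ (M : ℤ) (p : (GolayPt → ℤ) → Prop),
      {x : GolayPt → ℤ | x ∈ leechLattice ∧ sqNorm x = M ∧ p x}.Finite := by
    intro M p
    apply Set.Finite.subset (Finset.finite_toSet (Fintype.piFinset (fun _ : GolayPt => Finset.Icc (-M) M)))
    rintro x ⟨_, h2, _⟩
    rw [Finset.mem_coe, Fintype.mem_piFinset]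
    intro i
    rw [Finset.mem_Icc]
    have := sq_le_norm x i
    rw [h2] at this
    constructor <;> nlinarith
  rw [hset, Set.ncard_union_eq _ (hfin _ _) (hfin _ _), h1, h2]
  rw [Set.disjoint_left]
  rintro x ⟨hx, _, h3⟩ ⟨_, _, y, hy, _⟩
  have h4 := h3 none
  rw [hy] at h4
  have h5 : ∀ d ∈ Dodd ∪ Dodd.image (fun d => -d), d % 2 = 1 := by decide
  have := h5 _ h4
  simp only at this
  omega

end CfsgL.Leech
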