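import Cfsg.Agent.L.Leech.Counts
/-!
Numerical values.
-/
set_option autoImplicit false
set_option maxHeartbeats 400000
namespace CfsgL.Leech
open Cfsg CfsgL.Golay CfsgL.Digits Finset

/-- the base of the digit computation -/
def BB : ℕ := 2 ^ 60
def aa : ℕ := BB ^ 205 + BB ^ 203 + BB ^ 1807 + BB ^ 1801
def bb : ℕ := BB ^ 4 + BB ^ 806 + BB ^ 802 + BB ^ 3208 + BB ^ 3200
theorem haa : ∑ d ∈ DoF, BB ^ gE d = aa := by decide +kernel
theorem hbb : ∑ d ∈ DeF, BB ^ gE d = bb := by decide +kernel
theorem hBB : 5 ^ 24 < BB := by decide +kernel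

theorem count32 : {x : GolayPt → ℤ | x ∈ leechLattice ∧ sqNorm x = 32}.ncard = 196560 := by
  have h := total BB hBB 8 32 (by norm_num) (by norm_num) 1 (by norm_num) (by norm_num) 98304 98256
    aa bb (by decide +kernel) haa hbb (by decide +kernel)
  exact h

theorem count48 : {x : GolayPt → ℤ | x ∈ leechLattice ∧ sqNorm x = 48}.ncard = 16773120 := by
  have h := total BB hBB 12 48 (by norm_num) (by norm_num) 3 (by norm_num) (by norm_num)
    8388608 8384512 aa bb (by decide +kernel) haa hbb (by decide +kernel)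
  exact h

theorem count64 : {x : GolayPt → ℤ | x ∈ leechLattice ∧ sqNorm x = 64}.ncard = 398034000 := by
  have h := total BB hBB 16 64 (by norm_num) (by norm_num) 5 (by norm_num) (by norm_num)
    198967296 199066704 aa bb (by decide +kernel) haa hbb (by decide +kernel)
  exact h

end CfsgL.Leech
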